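import Cfsg.Agent.Lib.Helper94.OMG.Defs
import Cfsg.Agent.Lib.Helper14.Forms

/-!
# Project OMG (S2415), package [MIXGLUE]: `pkgMixM_of (hA : PkgMixA) (hW : PkgMixW) : PkgMixM`

`u := h⁻¹ x h`, with `x` from [MIXA] and `h` from [MIXW] for `C = fixSp x`.
-/

set_option autoImplicit false
open scoped Matrix MatrixGroups

namespace Cfsg.Agent.Lib.Helper45.OMG

open Cfsg.Agent.Lib.Helper94.OMG Cfsg.Agent.Lib.Helper64.OParM Cfsg.Agent.Lib.Helper23.OHyp

universe u

section basic

variable {k : ℕ} {F : Type u} [Field F] {a b : F}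

theorem omg_fix_iff (M : Matrix (MI k) (MI k) F) (v : MI k → F) :
    v ∈ fixSp M ↔ M *ᵥ v = v := by
  unfold fixSp
  rw [LinearMap.mem_ker, LinearMap.sub_apply, Matrix.toLin'_apply, Module.End.one_apply,
    sub_eq_zero]

theorem omg_BM_eq (x y : MI k → F) :
    BM k a b x y = QuadraticMap.polar (⇑(Cfsg.Agent.Lib.Helper14.minusQF k F a b)) x y := by
  rw [Cfsg.Agent.Lib.Helper14.minusQF_coe]

theorem omg_BM_add_left (x x' y : MI k → F) :
    BM k a b (x + x') y = BM k a b x y + BM k a b x' y := by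
  rw [omg_BM_eq, omg_BM_eq, omg_BM_eq, QuadraticMap.polar_add_left]

theorem omg_BM_smul_left (c : F) (x y : MI k → F) :
    BM k a b (c • x) y = c * BM k a b x y := by
  rw [omg_BM_eq, omg_BM_eq, QuadraticMap.polar_smul_left, smul_eq_mul]

theorem omg_BM_add_right (x y y' : MI k → F) :
    BM k a b x (y + y') = BM k a b x y + BM k a b x y' := by
  rw [omg_BM_eq, omg_BM_eq, omg_BM_eq, QuadraticMap.polar_add_right]

theorem omg_BM_smul_right (c : F) (x y : MI k → F) :
    BM k a b x (c • y) = c * BM k a b x y := by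
  rw [omg_BM_eq, omg_BM_eq, QuadraticMap.polar_smul_right, smul_eq_mul]

theorem omg_BM_zero_left (y : MI k → F) : BM k a b 0 y = 0 := by
  rw [omg_BM_eq, QuadraticMap.polar_zero_left]

theorem omg_BM_comm (x y : MI k → F) : BM k a b x y = BM k a b y x :=
  QuadraticMap.polar_comm _ x y

theorem omg_BM_eM (i : Fin k) (x : MI k → F) :
    BM k a b (eM i) x = x (Sum.inl (Sum.inr i)) :=
  Cfsg.Agent.Lib.Helper14.minus_polar_inl k F a b i x

theorem omg_BM_fM (i : Fin k) (x : MI k → F) :
    BM k a b (fM i) x = x (Sum.inl (Sum.inl i)) :=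
  Cfsg.Agent.Lib.Helper14.minus_polar_inr k F a b i x

end basic

/-- [MIXGLUE]. -/
theorem pkgMixM_of (hA : PkgMixA.{u}) (hW : PkgMixW.{u}) : PkgMixM.{u} := by
  intro F _ _ k a b hab hk
  obtain ⟨r, x, hr, hr2, hrq, hxr, hfin, hNd, hPlus, hPerp, hCompl, horb⟩ := hA F k a b hab hk
  obtain ⟨h, hh⟩ := hW F k a b hab hk (fixSp (matM x)) hNd hPlus hfin
  have hconj : ∀ j : ℕ, (h⁻¹ * x * h) ^ j = h⁻¹ * x ^ j * h := by
    intro j
    have e : h⁻¹ * x * h = h⁻¹ * x * (h⁻¹)⁻¹ := by rw [inv_inv]
    rw [e, conj_pow, inv_inv]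
  have hinj : Function.Injective (fun v : MI k → F => matM h *ᵥ v) :=
    Function.LeftInverse.injective (g := fun v => matM h⁻¹ *ᵥ v) (fun v => invM_act h v)
  have hk1 : k - 1 ≤ k := Nat.sub_le k 1
  -- the generators of `C = fixSp x`
  obtain ⟨ιmap, hιmap⟩ : ∃ ιmap : Fin (k - 1) ⊕ Fin (k - 1) → MI k,
      ιmap = Sum.elim (fun j => Sum.inl (Sum.inl (Fin.castLE hk1 j)))
        (fun j => Sum.inl (Sum.inr (Fin.castLE hk1 j))) := ⟨_, rfl⟩
  have hιinj : Function.Injective ιmap := by
    rw [hιmap]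
    rintro (j | j) (j' | j') hjj
    · have h1 : Fin.castLE hk1 j = Fin.castLE hk1 j' := Sum.inl_injective (Sum.inl_injective hjj)
      rw [Fin.castLE_injective hk1 h1]
    · exact absurd (Sum.inl_injective hjj) Sum.inl_ne_inr
    · exact absurd (Sum.inl_injective hjj) Sum.inr_ne_inl
    · have h1 : Fin.castLE hk1 j = Fin.castLE hk1 j' := Sum.inr_injective (Sum.inl_injective hjj)
      rw [Fin.castLE_injective hk1 h1]
  have hgen_e : ∀ i : Fin k, Matrix.toLin' (matM h) ((Pi.basisFun F (MI k)) (Sum.inl (Sum.inl i)))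
      = matM h *ᵥ (eM i : MI k → F) := fun i => by
    rw [Matrix.toLin'_apply, Pi.basisFun_apply]
  have hgen_f : ∀ i : Fin k, Matrix.toLin' (matM h) ((Pi.basisFun F (MI k)) (Sum.inl (Sum.inr i)))
      = matM h *ᵥ (fM i : MI k → F) := fun i => by
    rw [Matrix.toLin'_apply, Pi.basisFun_apply]
  have hli : LinearIndependent F
      (fun t => Matrix.toLin' (matM h) ((Pi.basisFun F (MI k)) (ιmap t))) := by
    have h1 : LinearIndependent F ((Pi.basisFun F (MI k)) ∘ ιmap) :=
      (Pi.basisFun F (MI k)).linearIndependent.comp ιmap hιinj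
    have hker : LinearMap.ker (Matrix.toLin' (matM h)) = ⊥ := by
      rw [LinearMap.ker_eq_bot]
      intro v v' hv
      rw [Matrix.toLin'_apply, Matrix.toLin'_apply] at hv
      exact hinj hv
    exact h1.map' (Matrix.toLin' (matM h)) hker
  have hcast : ∀ j : Fin (k - 1), (Fin.castLE hk1 j).val + 1 < k := by
    intro j
    have h1 := j.2
    show j.val + 1 < k
    omega
  have hspan : Submodule.span F
      (Set.range (fun t => Matrix.toLin' (matM h) ((Pi.basisFun F (MI k)) (ιmap t)))) =
      fixSp (matM x) := by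
    apply Submodule.eq_of_le_of_finrank_eq
    · rw [Submodule.span_le]
      rintro _ ⟨t, rfl⟩
      rw [hιmap]
      rcases t with j | j
      · show Matrix.toLin' (matM h) ((Pi.basisFun F (MI k))
          (Sum.inl (Sum.inl (Fin.castLE hk1 j)))) ∈ fixSp (matM x)
        rw [hgen_e]
        exact (hh _ (hcast j)).1
      · show Matrix.toLin' (matM h) ((Pi.basisFun F (MI k))
          (Sum.inl (Sum.inr (Fin.castLE hk1 j)))) ∈ fixSp (matM x)
        rw [hgen_f]
        exact (hh _ (hcast j)).2
    · rw [finrank_span_eq_card hli, hfin, Fintype.card_sum, Fintype.card_fin]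
      omega
  -- a vector perpendicular to the generators lies in `movSp x`
  have hmov : ∀ y : MI k → F,
      (∀ i : Fin k, i.val + 1 < k → BM k a b (matM h *ᵥ (eM i : MI k → F)) y = 0 ∧
        BM k a b (matM h *ᵥ (fM i : MI k → F)) y = 0) → y ∈ movSp (matM x) := by
    intro y hy
    have hperpC : ∀ c ∈ fixSp (matM x), BM k a b c y = 0 := by
      intro c hc
      rw [← hspan] at hc
      induction hc using Submodule.span_induction with
      | mem z hz =>
        obtain ⟨t, rfl⟩ := hz
        rw [hιmap]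
        rcases t with j | j
        · show BM k a b (Matrix.toLin' (matM h) ((Pi.basisFun F (MI k))
            (Sum.inl (Sum.inl (Fin.castLE hk1 j))))) y = 0
          rw [hgen_e]
          exact (hy _ (hcast j)).1
        · show BM k a b (Matrix.toLin' (matM h) ((Pi.basisFun F (MI k))
            (Sum.inl (Sum.inr (Fin.castLE hk1 j))))) y = 0
          rw [hgen_f]
          exact (hy _ (hcast j)).2
      | zero => exact omg_BM_zero_left y
      | add z z' _ _ hz hz' => rw [omg_BM_add_left, hz, hz', add_zero]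
      | smul c z _ hz => rw [omg_BM_smul_left, hz, mul_zero]
    have htop : y ∈ fixSp (matM x) ⊔ movSp (matM x) := by
      rw [hCompl.sup_eq_top]; exact Submodule.mem_top
    obtain ⟨c, hc, m', hm', rfl⟩ := Submodule.mem_sup.mp htop
    have hc0 : c = 0 := by
      by_contra hne
      obtain ⟨⟨c', hc', hcc⟩, -⟩ := hNd c hc hne
      apply hcc
      have h1 := hperpC c' hc'
      rw [omg_BM_add_right] at h1
      have h2 : BM k a b c' m' = 0 := hPerp c' hc' m' hm'
      rw [h2, add_zero] at h1
      exact h1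
    rw [hc0, zero_add]; exact hm'
  have hWmov : ∀ w : MI k → F, IsW w → matM h *ᵥ w ∈ movSp (matM x) := by
    intro w hw
    apply hmov
    intro i hi
    constructor
    · rw [BM_act, omg_BM_eM]; exact (hw i hi).2
    · rw [BM_act, omg_BM_fM]; exact (hw i hi).1
  refine ⟨r, h⁻¹ * x * h, hr, hr2, hrq, ?_, ?_, ?_⟩
  · rw [hconj, hxr, mul_one, inv_mul_cancel]
  · intro i hi
    obtain ⟨he, hf⟩ := hh i hi
    rw [omg_fix_iff] at he hf
    constructor
    · rw [mulM_act, mulM_act, he, invM_act]
    · rw [mulM_act, mulM_act, hf, invM_act]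
  · intro l hl w hw
    have hlW_e : IsW (eM l : MI k → F) := by
      intro i hi
      have hne : i ≠ l := fun h0 => by rw [h0] at hi; omega
      constructor
      · show (Pi.single (Sum.inl (Sum.inl l)) (1 : F) : MI k → F) (Sum.inl (Sum.inl i)) = 0
        rw [Pi.single_apply, if_neg]
        intro h0
        exact hne (Sum.inl_injective (Sum.inl_injective h0))
      · show (Pi.single (Sum.inl (Sum.inl l)) (1 : F) : MI k → F) (Sum.inl (Sum.inr i)) = 0
        rw [Pi.single_apply, if_neg]
        intro h0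
        exact Sum.inr_ne_inl (Sum.inl_injective h0)
    have hlW_f : IsW (fM l : MI k → F) := by
      intro i hi
      have hne : i ≠ l := fun h0 => by rw [h0] at hi; omega
      constructor
      · show (Pi.single (Sum.inl (Sum.inr l)) (1 : F) : MI k → F) (Sum.inl (Sum.inl i)) = 0
        rw [Pi.single_apply, if_neg]
        intro h0
        exact Sum.inl_ne_inr (Sum.inl_injective h0)
      · show (Pi.single (Sum.inl (Sum.inr l)) (1 : F) : MI k → F) (Sum.inl (Sum.inr i)) = 0
        rw [Pi.single_apply, if_neg]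
        intro h0
        exact hne (Sum.inr_injective (Sum.inl_injective h0))
    have hne_e : matM h *ᵥ (eM l : MI k → F) ≠ 0 := by
      intro h0
      have h1 : (eM l : MI k → F) = 0 := hinj (by
        show matM h *ᵥ (eM l : MI k → F) = matM h *ᵥ (0 : MI k → F)
        rw [h0, Matrix.mulVec_zero])
      have h2 := congrFun h1 (Sum.inl (Sum.inl l))
      simp [eM] at h2
    have hne_f : matM h *ᵥ (fM l : MI k → F) ≠ 0 := by
      intro h0
      have h1 : (fM l : MI k → F) = 0 := hinj (by
        show matM h *ᵥ (fM l : MI k → F) = matM h *ᵥ (0 : MI k → F)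
        rw [h0, Matrix.mulVec_zero])
      have h2 := congrFun h1 (Sum.inl (Sum.inr l))
      simp [fM] at h2
    -- transport of the orbit statement
    have htrans : ∀ v : MI k → F,
        matM h *ᵥ w ∈ Submodule.span F (Set.range fun j : ℕ => matM (x ^ j) *ᵥ (matM h *ᵥ v)) →
        w ∈ Submodule.span F (Set.range fun j : ℕ => matM ((h⁻¹ * x * h) ^ j) *ᵥ v) := by
      intro v hv
      have hle : Submodule.span F (Set.range fun j : ℕ => matM (x ^ j) *ᵥ (matM h *ᵥ v)) ≤
          (Submodule.span F (Set.range fun j : ℕ => matM ((h⁻¹ * x * h) ^ j) *ᵥ v)).comap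
            (Matrix.toLin' (matM h⁻¹)) := by
        rw [Submodule.span_le]
        rintro _ ⟨j, rfl⟩
        rw [SetLike.mem_coe, Submodule.mem_comap, Matrix.toLin'_apply]
        apply Submodule.subset_span
        refine ⟨j, ?_⟩
        show matM ((h⁻¹ * x * h) ^ j) *ᵥ v = _
        rw [hconj, mulM_act, mulM_act]
      have h1 := hle hv
      have h2 : Matrix.toLin' (matM h⁻¹) (matM h *ᵥ w) ∈
          Submodule.span F (Set.range fun j : ℕ => matM ((h⁻¹ * x * h) ^ j) *ᵥ v) := h1
      rwa [Matrix.toLin'_apply, invM_act] at h2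
    exact ⟨htrans _ (horb _ (hWmov _ hlW_e) hne_e _ (hWmov w hw)),
      htrans _ (horb _ (hWmov _ hlW_f) hne_f _ (hWmov w hw))⟩

end Cfsg.Agent.Lib.Helper45.OMG
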